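import Mathlib
import Cfsg.Agent.Lib.Helper12.OHyp.ExDefs

/-!
# OHYP (S5992), helper12's cut of [EXIST]: package [ECONJ]
-/

set_option autoImplicit false

namespace Cfsg.Agent.Lib.Helper13.OHyp

open Matrix Cfsg.Agent.Lib.Helper23.OHyp

universe u

section

variable {F : Type u} [Field F] {ι ι' : Type} [Fintype ι] [DecidableEq ι]
  [Fintype ι'] [DecidableEq ι']

/-- conjugation of `GL ι' F` into `GL ι F` along a linear equivalence. -/
noncomputable def econjHom (e : (ι → F) ≃ₗ[F] (ι' → F)) : GL ι' F →* GL ι F where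
  toFun g :=
    { val := LinearMap.toMatrix' (e.symm : (ι' → F) →ₗ[F] (ι → F)) * (g : Matrix ι' ι' F) *
        LinearMap.toMatrix' (e : (ι → F) →ₗ[F] (ι' → F))
      inv := LinearMap.toMatrix' (e.symm : (ι' → F) →ₗ[F] (ι → F)) *
        ((g⁻¹ : GL ι' F) : Matrix ι' ι' F) * LinearMap.toMatrix' (e : (ι → F) →ₗ[F] (ι' → F))
      val_inv := by
        have h1 : LinearMap.toMatrix' (e : (ι → F) →ₗ[F] (ι' → F)) *
            LinearMap.toMatrix' (e.symm : (ι' → F) →ₗ[F] (ι → F)) = 1 := by
          rw [← LinearMap.toMatrix'_comp]; simp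
        have h2 : LinearMap.toMatrix' (e.symm : (ι' → F) →ₗ[F] (ι → F)) *
            LinearMap.toMatrix' (e : (ι → F) →ₗ[F] (ι' → F)) = 1 := by
          rw [← LinearMap.toMatrix'_comp]; simp
        calc _ = LinearMap.toMatrix' (e.symm : (ι' → F) →ₗ[F] (ι → F)) * ((g : Matrix ι' ι' F) *
              (LinearMap.toMatrix' (e : (ι → F) →ₗ[F] (ι' → F)) *
              LinearMap.toMatrix' (e.symm : (ι' → F) →ₗ[F] (ι → F))) *
              ((g⁻¹ : GL ι' F) : Matrix ι' ι' F)) *
              LinearMap.toMatrix' (e : (ι → F) →ₗ[F] (ι' → F)) := by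
              simp only [Matrix.mul_assoc]
          _ = 1 := by
              rw [h1, Matrix.mul_one, ← Units.val_mul, mul_inv_cancel, Units.val_one,
                Matrix.mul_one, h2]
      inv_val := by
        have h1 : LinearMap.toMatrix' (e : (ι → F) →ₗ[F] (ι' → F)) *
            LinearMap.toMatrix' (e.symm : (ι' → F) →ₗ[F] (ι → F)) = 1 := by
          rw [← LinearMap.toMatrix'_comp]; simp
        have h2 : LinearMap.toMatrix' (e.symm : (ι' → F) →ₗ[F] (ι → F)) *
            LinearMap.toMatrix' (e : (ι → F) →ₗ[F] (ι' → F)) = 1 := by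
          rw [← LinearMap.toMatrix'_comp]; simp
        calc _ = LinearMap.toMatrix' (e.symm : (ι' → F) →ₗ[F] (ι → F)) *
              (((g⁻¹ : GL ι' F) : Matrix ι' ι' F) *
              (LinearMap.toMatrix' (e : (ι → F) →ₗ[F] (ι' → F)) *
              LinearMap.toMatrix' (e.symm : (ι' → F) →ₗ[F] (ι → F))) *
              (g : Matrix ι' ι' F)) *
              LinearMap.toMatrix' (e : (ι → F) →ₗ[F] (ι' → F)) := by
              simp only [Matrix.mul_assoc]
          _ = 1 := by
              rw [h1, Matrix.mul_one, ← Units.val_mul, inv_mul_cancel, Units.val_one,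
                Matrix.mul_one, h2] }
  map_one' := by
    apply Units.ext
    have h2 : LinearMap.toMatrix' (e.symm : (ι' → F) →ₗ[F] (ι → F)) *
        LinearMap.toMatrix' (e : (ι → F) →ₗ[F] (ι' → F)) = 1 := by
      rw [← LinearMap.toMatrix'_comp]; simp
    simp [h2]
  map_mul' g h := by
    apply Units.ext
    have h1 : LinearMap.toMatrix' (e : (ι → F) →ₗ[F] (ι' → F)) *
        LinearMap.toMatrix' (e.symm : (ι' → F) →ₗ[F] (ι → F)) = 1 := by
      rw [← LinearMap.toMatrix'_comp]; simp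
    show LinearMap.toMatrix' (e.symm : (ι' → F) →ₗ[F] (ι → F)) *
        ((g * h : GL ι' F) : Matrix ι' ι' F) * LinearMap.toMatrix' (e : (ι → F) →ₗ[F] (ι' → F)) =
      (LinearMap.toMatrix' (e.symm : (ι' → F) →ₗ[F] (ι → F)) * (g : Matrix ι' ι' F) *
        LinearMap.toMatrix' (e : (ι → F) →ₗ[F] (ι' → F))) *
      (LinearMap.toMatrix' (e.symm : (ι' → F) →ₗ[F] (ι → F)) * (h : Matrix ι' ι' F) *
        LinearMap.toMatrix' (e : (ι → F) →ₗ[F] (ι' → F)))
    calc _ = LinearMap.toMatrix' (e.symm : (ι' → F) →ₗ[F] (ι → F)) * ((g : Matrix ι' ι' F) *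
          1 * (h : Matrix ι' ι' F)) * LinearMap.toMatrix' (e : (ι → F) →ₗ[F] (ι' → F)) := by
          rw [Matrix.mul_one, Units.val_mul]
      _ = _ := by rw [← h1]; simp only [Matrix.mul_assoc]

theorem econjHom_mulVec (e : (ι → F) ≃ₗ[F] (ι' → F)) (g : GL ι' F) (v : ι → F) :
    ((econjHom e g : GL ι F) : Matrix ι ι F) *ᵥ v = e.symm ((g : Matrix ι' ι' F) *ᵥ e v) := by
  show (LinearMap.toMatrix' (e.symm : (ι' → F) →ₗ[F] (ι → F)) * (g : Matrix ι' ι' F) *
        LinearMap.toMatrix' (e : (ι → F) →ₗ[F] (ι' → F))) *ᵥ v = _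
  rw [← Matrix.mulVec_mulVec, ← Matrix.mulVec_mulVec, LinearMap.toMatrix'_mulVec,
    LinearMap.toMatrix'_mulVec]
  rfl

theorem econjHom_injective (e : (ι → F) ≃ₗ[F] (ι' → F)) : Function.Injective (econjHom e) := by
  intro g h hgh
  apply Units.ext
  apply Matrix.toLin'.injective
  apply LinearMap.ext
  intro w
  have h1 := econjHom_mulVec e g (e.symm w)
  have h2 := econjHom_mulVec e h (e.symm w)
  rw [hgh, h2] at h1
  simp only [LinearEquiv.apply_symm_apply] at h1
  rw [Matrix.toLin'_apply, Matrix.toLin'_apply]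
  exact (e.symm.injective h1).symm

end

/-- **[ECONJ]** -/
theorem pkgEConj : Cfsg.Agent.Lib.Helper12.OHyp.PkgEConj.{u} := by
  intro F _ ι ι' _ _ _ _ Q Q' a e ha hQ x' hx'
  refine ⟨econjHom e x', ?_, orderOf_injective (econjHom e) (econjHom_injective e) x', ?_⟩
  · intro u v
    show Q (((econjHom e x' : GL ι F) : Matrix ι ι F) *ᵥ u) = Q u
    rw [econjHom_mulVec, hQ, hQ u, LinearEquiv.apply_symm_apply]
    have := hx' (e u) (e u)
    have h3 : Q' ((x' : Matrix ι' ι' F) *ᵥ e u) = Q' (e u) := this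
    rw [h3]
  · have hmap : (fixSp ((econjHom e x' : GL ι F) : Matrix ι ι F)).map
        (e : (ι → F) →ₗ[F] (ι' → F)) = fixSp (x' : Matrix ι' ι' F) := by
      ext w
      simp only [Submodule.mem_map, fixSp, LinearMap.mem_ker, LinearMap.sub_apply,
        Matrix.toLin'_apply, Module.End.one_apply, sub_eq_zero]
      constructor
      · rintro ⟨v, hv, rfl⟩
        rw [econjHom_mulVec] at hv
        have := congrArg e hv
        simpa using this
      · intro hw
        refine ⟨e.symm w, ?_, by simp⟩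
        rw [econjHom_mulVec]
        simp [hw]
    rw [← hmap]
    exact (LinearEquiv.finrank_map_eq e _).symm

end Cfsg.Agent.Lib.Helper13.OHyp
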